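import Cfsg.Agent.H17.Cub1

/-! The isometry group of the cubic form is generated by the root elements. -/

set_option autoImplicit false
set_option maxRecDepth 100000
open Matrix Finset

namespace Cfsg.Agent.H17.Cub

def rowB (L : List I) (l : I) : Bool := L.any fun i => L.any fun j => sg i j != 0 && th i j == l
def kn (L : List I) (k j : I) : Bool :=
  L.contains j || rowB L k || L.any fun i => sg i k != 0 && (sg i j == 0 || rowB L (th i j))
def fixB (L : List I) (r : Fin 72) : Bool := (List.finRange 27).all fun k => s r k == 0 || !L.contains (ρ r k)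
def mv (L : List I) (c w : I) : Bool := w != c && sg c w == 0 && fixB L (rt c w)
def chB (L : List I) (c : I) : List (I × I) → Bool
  | [] => true
  | p :: R => (p.2 == c || (R.map Prod.fst).contains p.2) && mv L p.1 p.2 && chB L c R
def stepB (L : List I) (c : I) (R : List (I × I)) : Bool :=
  ((List.finRange 27).all fun w => w == c || sg c w != 0 || kn L w c || mv L c w) && chB L c R &&
  (kn L c c || (!L.contains c && (List.finRange 27).all fun m => L.contains m || (m != c && kn L m c) || (R.map Prod.fst).contains m)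
    || L.any fun a => sg a c != 0 && (List.finRange 27).all fun m =>
      sg a m == 0 || (m != c && kn L m c) || (R.map Prod.fst).contains m)

theorem k0 : stepB [] 0 [(0, 1), (26, 0), (25, 0), (24, 3), (23, 0), (22, 0), (21, 3), (20, 0), (19, 0), (18, 3), (17, 0), (16, 0), (15, 0), (14, 0), (13, 0), (12, 0), (11, 1), (10, 1), (9, 1), (8, 2), (7, 1), (6, 0), (5, 2), (4, 1), (3, 0), (2, 0), (1, 0)] = true := by decide +kernel
theorem k1 : stepB [0] 1 [(6, 3), (3, 12), (1, 2), (26, 1), (25, 1), (23, 1), (22, 1), (20, 1), (19, 1), (17, 1), (16, 1), (15, 1), (14, 2), (13, 2), (12, 2), (2, 1)] = true := by decide +kernel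
theorem k2 : stepB [1, 0] 2 [(17, 15), (16, 15), (15, 22), (2, 19), (26, 2), (25, 2), (23, 2), (22, 2), (20, 2), (19, 2)] = true := by decide +kernel
theorem k3 : stepB [2, 1, 0] 9 [(9, 10), (11, 9), (10, 9)] = true := by decide +kernel
theorem k4 : stepB [9, 2, 1, 0] 12 [] = true := by decide +kernel
theorem k5 : stepB [12, 9, 2, 1, 0] 15 [] = true := by decide +kernel
theorem k6 : stepB [15, 12, 9, 2, 1, 0] 18 [] = true := by decide +kernel
theorem k7 : stepB [18, 15, 12, 9, 2, 1, 0] 3 [(3, 6), (6, 3)] = true := by decide +kernel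
theorem k8 : stepB [3, 18, 15, 12, 9, 2, 1, 0] 4 [] = true := by decide +kernel
theorem k9 : stepB [4, 3, 18, 15, 12, 9, 2, 1, 0] 5 [] = true := by decide +kernel
theorem k10 : stepB [5, 4, 3, 18, 15, 12, 9, 2, 1, 0] 20 [] = true := by decide +kernel
theorem k11 : stepB [20, 5, 4, 3, 18, 15, 12, 9, 2, 1, 0] 6 [] = true := by decide +kernel
theorem k12 : stepB [6, 20, 5, 4, 3, 18, 15, 12, 9, 2, 1, 0] 7 [] = true := by decide +kernel
theorem k13 : stepB [7, 6, 20, 5, 4, 3, 18, 15, 12, 9, 2, 1, 0] 8 [] = true := by decide +kernel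
theorem k14 : stepB [8, 7, 6, 20, 5, 4, 3, 18, 15, 12, 9, 2, 1, 0] 19 [] = true := by decide +kernel
theorem k15 : stepB [19, 8, 7, 6, 20, 5, 4, 3, 18, 15, 12, 9, 2, 1, 0] 10 [(10, 11), (11, 10)] = true := by decide +kernel
theorem k16 : stepB [10, 19, 8, 7, 6, 20, 5, 4, 3, 18, 15, 12, 9, 2, 1, 0] 13 [] = true := by decide +kernel
theorem k17 : stepB [13, 10, 19, 8, 7, 6, 20, 5, 4, 3, 18, 15, 12, 9, 2, 1, 0] 16 [] = true := by decide +kernel
theorem k18 : stepB [16, 13, 10, 19, 8, 7, 6, 20, 5, 4, 3, 18, 15, 12, 9, 2, 1, 0] 24 [] = true := by decide +kernel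
theorem k19 : stepB [24, 16, 13, 10, 19, 8, 7, 6, 20, 5, 4, 3, 18, 15, 12, 9, 2, 1, 0] 25 [] = true := by decide +kernel
theorem k20 : stepB [25, 24, 16, 13, 10, 19, 8, 7, 6, 20, 5, 4, 3, 18, 15, 12, 9, 2, 1, 0] 26 [] = true := by decide +kernel
theorem k21 : stepB [26, 25, 24, 16, 13, 10, 19, 8, 7, 6, 20, 5, 4, 3, 18, 15, 12, 9, 2, 1, 0] 11 [] = true := by decide +kernel
theorem k22 : stepB [11, 26, 25, 24, 16, 13, 10, 19, 8, 7, 6, 20, 5, 4, 3, 18, 15, 12, 9, 2, 1, 0] 14 [] = true := by decide +kernel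
theorem k23 : stepB [14, 11, 26, 25, 24, 16, 13, 10, 19, 8, 7, 6, 20, 5, 4, 3, 18, 15, 12, 9, 2, 1, 0] 17 [] = true := by decide +kernel
theorem k24 : stepB [17, 14, 11, 26, 25, 24, 16, 13, 10, 19, 8, 7, 6, 20, 5, 4, 3, 18, 15, 12, 9, 2, 1, 0] 21 [] = true := by decide +kernel
theorem k25 : stepB [21, 17, 14, 11, 26, 25, 24, 16, 13, 10, 19, 8, 7, 6, 20, 5, 4, 3, 18, 15, 12, 9, 2, 1, 0] 22 [] = true := by decide +kernel
theorem k26 : stepB [22, 21, 17, 14, 11, 26, 25, 24, 16, 13, 10, 19, 8, 7, 6, 20, 5, 4, 3, 18, 15, 12, 9, 2, 1, 0] 23 [] = true := by decide +kernel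

variable {F : Type*} [Field F] {a : F} (ha : a ≠ 0 ∧ a ≠ 1) {g : GL I F} {L : List I} {c : I}

variable (F) in
def G0 : Subgroup (GL I F) := Subgroup.closure {g | ∃ r t, g = x r t}
def Fx (g : GL I F) (L : List I) : Prop := g ∈ G F ∧ ∀ j ∈ L, (g : Matrix I I F) *ᵥ Pi.single j 1 = Pi.single j 1
variable (F) in
def St (L : List I) : Prop := ∀ g : GL I F, Fx g L → g ∈ G0 F

theorem col (g : GL I F) (k j : I) : ((g : Matrix I I F) *ᵥ Pi.single j 1) k = g k j := by simp

theorem St.fin (h : ∀ j, j ∈ L) : St F L := fun g hg => by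
  obtain rfl : g = 1 := Units.ext (Matrix.ext fun k j => by
    rw [← col, hg.2 j (h j)]; simp [Pi.single_apply, one_apply])
  exact one_mem _

theorem Fx.mul (hg : Fx g L) {r : Fin 72} (h : fixB L r = true) (t : F) : Fx (x r t * g) L :=
  ⟨mul_mem (x_mem r t) hg.1, fun j hj => by
    rw [Units.val_mul, ← mulVec_mulVec, hg.2 j hj, x_mulVec, add_eq_left]
    funext k
    have := List.all_eq_true.1 h k (List.mem_finRange k)
    simp only [Bool.or_eq_true, beq_iff_eq, Bool.not_eq_true', List.contains_eq_mem, decide_eq_false_iff_not] at this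
    rcases this with e | e
    · simp [En, mono, e]
    · simp [En, mono, show j ≠ ρ r k from fun c => e (c ▸ hj)]⟩

theorem x_mul (r : Fin 72) (t : F) (g : GL I F) (k j : I) : (x r t * g) k j = g k j + t * (s r k * g (ρ r k) j) := by
  rw [← col, Units.val_mul, ← mulVec_mulVec, x_mulVec]; simp [En, mono_mulVec]

theorem of_mul (r : Fin 72) (t : F) (h : x r t * g ∈ G0 F) : g ∈ G0 F :=
  (mul_mem_cancel_left (show x r t ∈ G0 F from Subgroup.subset_closure ⟨r, t, rfl⟩)).1 h

theorem tr {m m' : I} (h : mv L m m' = true) (h1 : ∀ g : GL I F, Fx g L → g m' c = 1 → g ∈ G0 F) (hg : Fx g L)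
    (h2 : g m c ≠ 0) : g ∈ G0 F := by
  simp only [mv, Bool.and_eq_true, bne_iff_ne, beq_iff_eq] at h
  obtain ⟨e1, e2, -⟩ := hr m m' h.1.1 h.1.2
  refine of_mul _ _ (h1 _ (hg.mul h.2 ((1 - g m' c) / (s (rt m m') m' * g m c))) ?_)
  rw [x_mul, e1, div_mul_cancel₀ _ (mul_ne_zero (sq_ne e2) h2)]; ring

theorem chB_sound (h1 : ∀ g : GL I F, Fx g L → g c c = 1 → g ∈ G0 F) : ∀ {R : List (I × I)}, chB L c R = true →
    ∀ m ∈ R.map Prod.fst, ∀ g : GL I F, Fx g L → g m c ≠ 0 → g ∈ G0 F
  | [], _ => by simp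
  | p :: R, h => by
    simp only [chB, Bool.and_eq_true, Bool.or_eq_true, beq_iff_eq, List.contains_eq_mem, decide_eq_true_eq] at h
    refine List.forall_mem_cons.2 ⟨fun g => tr h.1.2 fun g hg e => ?_, chB_sound h1 h.2⟩
    rcases h.1.1 with e' | e'
    · exact h1 g hg (e' ▸ e)
    · exact chB_sound h1 h.2 _ e' g hg (by simp [e])

include ha

theorem Fx.row (hg : Fx g L) {l : I} (h : rowB L l = true) (y : I → F) : ((g : Matrix I I F) *ᵥ y) l = y l := by
  simp only [rowB, List.any_eq_true, Bool.and_eq_true, bne_iff_ne, beq_iff_eq] at h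
  obtain ⟨i, hi, j, hj, h, rfl⟩ := h
  have := f_inv ha hg.1 (Pi.single i 1) (Pi.single j 1) y
  rw [hg.2 i hi, hg.2 j hj, f_single, f_single] at this
  exact mul_left_cancel₀ (sq_ne ((hs i j).resolve_left h).1) this

theorem Fx.kn (hg : Fx g L) {k j : I} (h : kn L k j = true) : g k j = (Pi.single j 1 : I → F) k := by
  simp only [Cub.kn, List.any_eq_true, Bool.and_eq_true, Bool.or_eq_true, bne_iff_ne, beq_iff_eq, List.contains_eq_mem,
    decide_eq_true_eq] at h
  rw [← col]
  rcases h with (h | h) | ⟨i, hi, h1, h2⟩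
  · rw [hg.2 j h]
  · exact hg.row ha h _
  obtain ⟨e1, e2, e3⟩ := (hs i k).resolve_left h1
  obtain ⟨y, hy⟩ : ∃ y, (g : Matrix I I F) *ᵥ y = Pi.single (th i k) 1 :=
    ⟨(g⁻¹ : GL I F) *ᵥ Pi.single (th i k) 1, by rw [mulVec_mulVec, Units.mul_inv, one_mulVec]⟩
  have h3 : f (Pi.single i 1) (Pi.single j 1) y = f (Pi.single i 1) (Pi.single j 1) ((g : Matrix I I F) *ᵥ y) := by
    rw [f_single, f_single]
    rcases h2 with h2 | h2
    · simp [h2]
    · rw [hg.row ha h2]
  have := f_inv ha hg.1 (Pi.single i 1) (Pi.single j 1) y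
  rw [hg.2 i hi, h3, hy, f_swap, f_single, f_swap, f_single, e2, e3] at this
  exact mul_left_cancel₀ (sq_ne e1) this

theorem clean (h : St F (c :: L)) : ∀ (W : List I), (∀ w ∈ W, mv L c w = true) → ∀ g : GL I F, Fx g L → g c c = 1 →
    (∀ w, w ≠ c → sg c w = 0 → w ∉ W → g w c = 0) → g ∈ G0 F
  | [], _, g, hg, h1, h2 => h g ⟨hg.1, List.forall_mem_cons.2 ⟨eq_single (by simpa) (fun w a b => by simpa using h2 w a b (by simp))
      fun y => by
        have := q_inv ha hg.1 (Pi.single c 1) ((g⁻¹ : GL I F) *ᵥ y)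
        rwa [q_single, mulVec_mulVec, Units.mul_inv, one_mulVec] at this, hg.2⟩⟩
  | w :: W, hW, g, hg, h1, h2 => by
    have hw := hW w (by simp)
    simp only [mv, Bool.and_eq_true, bne_iff_ne, beq_iff_eq] at hw
    obtain ⟨e1, e2, e3⟩ := hr c w hw.1.1 hw.1.2
    refine of_mul _ _ (clean h W (fun w' e => hW w' (by simp [e])) _ (hg.mul hw.2 (-(s (rt c w) w * g w c))) ?_ fun k a b d => ?_)
    · rw [x_mul, e3 c hw.1.1.symm (h0 c), h1]; simp
    by_cases e : k = w
    · have := congrArg (Int.cast : ℤ → F) e2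
      push_cast at this
      rw [x_mul, e, e1, h1]; linear_combination -g w c * this
    · rw [x_mul, e3 k e b, h2 k a b (by simp [e, d])]; simp

theorem St.step {R : List (I × I)} (hc : stepB L c R = true) (h : St F (c :: L)) : St F L := fun g hg => by
  simp only [stepB, List.all_eq_true, List.any_eq_true, Bool.and_eq_true, Bool.or_eq_true, bne_iff_ne, beq_iff_eq,
    List.contains_eq_mem, decide_eq_true_eq, List.mem_finRange, forall_const, Bool.not_eq_true', decide_eq_false_iff_not] at hc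
  obtain ⟨⟨c1, c2⟩, c3⟩ := hc
  have h1 : ∀ g : GL I F, Fx g L → g c c = 1 → g ∈ G0 F := fun g hg e =>
    clean ha h ((List.finRange 27).filter (mv L c)) (fun w hw => (List.mem_filter.1 hw).2) g hg e fun w a b d => by
      rcases c1 w with ((e | e) | e) | e
      · exact absurd e a
      · exact absurd b e
      · rw [hg.kn ha e, Pi.single_eq_of_ne a]
      · exact absurd (List.mem_filter.2 ⟨List.mem_finRange w, e⟩) d
  by_contra hn
  have h2 : ∀ m, (m ≠ c ∧ kn L m c = true) ∨ m ∈ R.map Prod.fst → g m c = 0 := fun m hm => by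
    rcases hm with e | e
    · rw [hg.kn ha e.2, Pi.single_eq_of_ne e.1]
    · by_contra e'; exact hn (chB_sound h1 c2 m e g hg e')
  rcases c3 with (e | ⟨e, e'⟩) | ⟨i, hi, e, e'⟩
  · exact hn (h1 g hg (by simpa using hg.kn ha e))
  · have h3 : ∀ m, m ∈ L ∨ g m c = 0 := fun m => (or_assoc.1 (e' m)).imp_right (h2 m)
    have h4 : (g : Matrix I I F) *ᵥ ((g : Matrix I I F) *ᵥ Pi.single c 1) = (g : Matrix I I F) *ᵥ Pi.single c 1 := by
      funext k
      conv_rhs => rw [← one_mulVec ((g : Matrix I I F) *ᵥ Pi.single c 1)]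
      change ∑ m, g k m * _ = ∑ m, (1 : Matrix I I F) k m * _
      refine sum_congr rfl fun m _ => ?_
      rcases h3 m with e | e
      · rw [← col g k m, hg.2 m e]; simp [one_apply, Pi.single_apply]
      · simp [e]
    have := congrFun (mulVec_injective_iff_isUnit.2 g.isUnit h4) c
    rw [col, (h3 c).resolve_left e] at this
    simp at this
  · obtain ⟨e1, e2, e3⟩ := (hs i c).resolve_left e
    have := f_inv ha hg.1 (Pi.single i 1) (Pi.single c 1) (Pi.single (th i c) 1)
    rw [hg.2 i hi, f_zero fun m hm => (col ..).trans (h2 m ((or_assoc.1 (e' m)).resolve_left hm)), f_single] at this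
    exact sq_ne e1 (by simpa using this.symm)

theorem G_eq : G F = G0 F := le_antisymm (fun g hg => (St.step ha k0 (St.step ha k1 (St.step ha k2 (St.step ha k3 (St.step ha k4 (St.step ha k5 (St.step ha k6 (St.step ha k7 (St.step ha k8 (St.step ha k9 (St.step ha k10 (St.step ha k11 (St.step ha k12 (St.step ha k13 (St.step ha k14 (St.step ha k15 (St.step ha k16 (St.step ha k17 (St.step ha k18 (St.step ha k19 (St.step ha k20 (St.step ha k21 (St.step ha k22 (St.step ha k23 (St.step ha k24 (St.step ha k25 (St.step ha k26 (St.fin (by decide)))))))))))))))))))))))))))) : St F []) g ⟨hg, by simp⟩)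
  ((Subgroup.closure_le _).2 fun _ ⟨r, t, e⟩ => e ▸ x_mem r t)

end Cfsg.Agent.H17.Cub
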