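import Cfsg.Agent.H17.LN7

/-! The model of the automorphism group, with one more letter. -/

set_option autoImplicit false
open Cfsg Subgroup Equiv
open Cfsg.Agent.H29 (tb tb_eq bit testBit_bit)

namespace Cfsg.Agent.H17

universe u
variable {G : Type u} [Group G]

/-- inner automorphisms -/
abbrev inn : G →* MulAut G := MulAut.conj

structure AM (B B' : FD) (k m : ℕ) (D : Set G) (g : ℕ → G) (φ : G →* Perm ℕ) (β : ℕ → G) (f : ℕ → MulAut G)
    (ψ : MulAut G →* Perm ℕ) : Prop where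
  bot : FM B m D g φ β
  top : FM B' (2 * m) (inn '' D) f ψ fun i => inn (β i)
  lt : ∀ x, x ≠ k → f x = inn (g x)
  out : f k ∉ (inn (G := G)).range
  inj : Function.Injective (inn (G := G))
  idx : (inn (G := G)).range.index = 2

theorem conj_conj (a : MulAut G) (x : G) : a * inn x * a⁻¹ = inn (a x) := by ext; simp

theorem comm_conj (hi : Function.Injective (inn (G := G))) {a : MulAut G} {x : G} : Commute a (inn x) ↔ a x = x := by
  rw [← hi.eq_iff, ← conj_conj, mul_inv_eq_iff_eq_mul]; rfl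

/-- the letter `k` permutes the letters by `r`, fixes the nodes `Y` and moves the point `q` -/
noncomputable def FD.autB (B B' : FD) (k q : ℕ) (r : List ℕ) (U Y : List (List ℕ)) : Bool :=
  band (weq [B'.T.n, B'.p0, B'.x0, B.T.nc, B'.T.nc, B'.ap [k] B.p0] [B.T.n, B.p0, B.x0, k, k + 1, B.pt (nth [] U (nth 0 r B.x0))]) <|
  band (weq B'.base (B.pts U)) <| band (ltB B.x0 k) <| band (Nat.beq (H29.len U) k) <|
  band (allLt k fun x => band (B.eqB [x] (B.tw (nth [] U x))) (band (ltB (nth 0 r x) k) (B'.T.satB [[k, x, k, nth 0 r x]]))) <|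
  band (allL (B.pts Y) fun p => Nat.beq (B'.ap [k] p) p) (B'.neB [k] [] q)

theorem FM.aut {B B' : FD} {k m q t r' : ℕ} {D : Set G} {g : ℕ → G} {φ : G →* Perm ℕ} {β : ℕ → G} (h : FM B m D g φ β)
    (hB : B'.Good) (hρ : ∀ x < k, B'.T.net x = B.T.net x) {r : List ℕ} {U Y : List (List ℕ)} (hc : B.autB B' k q r U Y = true)
    (ht : B.allB t r' = true) (hY : Nat.card (St B g φ ⊤ [] Y) ≤ 1) (hA : ∀ a : MulAut G, ∀ d ∈ D, a d ∈ D)
    (hm : Nat.card (MulAut G) = 2 * m) : ∃ f ψ, AM B B' k m D g φ β f ψ := by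
  have := h.fin
  have : Finite (MulAut G) := .of_injective _ MulEquiv.toEquiv_injective
  simp only [FD.autB, band_true, H29.len_eq] at hc
  obtain ⟨c1, c2, c3, c4, c5, c6, c7⟩ := hc
  have c1 := eq_of_weq c1
  simp only [List.cons.injEq, and_true] at c1
  obtain ⟨e1, e2, e3, e4, e5, e6⟩ := c1
  have c5 := fun x hx => (band_true.1 (allLt_true c5 x hx)).imp_right band_true.1
  have gU : ∀ x < k, g x = β (B.pt (nth [] U x)) := fun x hx => by rw [← h.ev_tw, ← h.eqB (c5 x hx).1, ev_single]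
  have hI := hB.good.inv
  set π := B'.T.ρ k with hπ
  have p2 : ∀ x ≤ k, (B'.T.ρ x)⁻¹ = B'.T.ρ x := fun x hx => by rw [← hI, inv_of_lt (by rw [hB.kk]; omega)]
  have ap : ∀ i < B.T.n, B'.ap [k] i = π i := fun i hi => by
    rw [FD.ap, SD.appWI_eq hB.good.toShape hB.ok _ _ ((e1 ▸ hi).trans_le hB.good.n_le), ev_single, p2 k le_rfl]
  have mp : ∀ x < k, φ (g x) = B'.T.ρ x := fun x hx => by rw [h.rep.map, TD.ρ, TD.ρ, hρ x hx]
  have gr : ∀ x < k, φ (g (nth 0 r x)) = π * φ (g x) * π⁻¹ := fun x hx => by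
    have := TD.satB_sound hB.good.toShape (c5 x hx).2.2 _ List.mem_cons_self
    simp only [ev_cons, ev_nil, mul_one, ← mul_assoc] at this
    rw [mp _ (ltB_true (c5 x hx).2.1), mp x hx, p2 k le_rfl, mul_eq_one_iff_eq_inv.1 this, p2 _ (ltB_true (c5 x hx).2.1).le]
  have ex : ∀ a, ∃ b, φ b = π * φ a * π⁻¹ := fun a => by
    obtain ⟨v, rfl⟩ := h.rep.gens.surj a
    induction v with
    | nil => exact ⟨1, by simp [ev_nil]⟩
    | cons x v ih =>
      obtain ⟨b, hb⟩ := ih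
      by_cases hx : x < k
      · exact ⟨g (nth 0 r x) * b, by rw [map_mul, hb, gr x hx, ev_cons, map_mul]; group⟩
      · exact ⟨b, by rw [hb, ev_cons, h.rep.gens.triv x (by omega), one_mul]⟩
  choose s hs using ex
  have ss : ∀ a, s (s a) = a := fun a => h.faith.inj (by
    have : π * π = 1 := mul_eq_one_iff_eq_inv.2 (p2 k le_rfl).symm
    rw [hs, hs, ← mul_assoc, ← mul_assoc, this, mul_assoc, ← mul_inv_rev, this]; simp)
  let σ : MulAut G := ⟨⟨s, s, ss, ss⟩, fun a b => h.faith.inj (by simp only [hs, map_mul]; group)⟩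
  let e : {i // i < B.T.n} ≃ D := ofBijective (fun i => ⟨β i, h.mem i.2⟩) ⟨fun i j e => Subtype.ext
    (h.inj _ _ i.2 j.2 (congrArg Subtype.val e)), fun d => let ⟨i, hi, e⟩ := (h.img d).1 d.2; ⟨⟨i, hi⟩, Subtype.ext e⟩⟩
  let χ : MulAut G →* Perm D := MonoidHom.mk' (fun a => ⟨fun d => ⟨a d, hA a d d.2⟩, fun d => ⟨a⁻¹ d, hA _ d d.2⟩,
    fun d => by simp, fun d => by simp⟩) fun _ _ => rfl
  let ψ := (Perm.extendDomainHom e.symm).comp χ
  have k1 : ∀ a, ∀ i < B.T.n, ψ a i < B.T.n ∧ β (ψ a i) = a (β i) := fun a i hi => by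
    have : ψ a i = e.symm (χ a (e ⟨i, hi⟩)) := Perm.extendDomain_apply_subtype (p := (· < B.T.n)) _ _ hi
    exact this ▸ ⟨(e.symm _).2, congrArg Subtype.val (e.apply_symm_apply _)⟩
  have k2 : ∀ a (p : Perm ℕ), (∀ i < B.T.n, p i < B.T.n ∧ β (p i) = a (β i)) → (∀ i, B.T.n ≤ i → p i = i) → ψ a = p :=
    fun a p h1 h2 => Equiv.ext fun i => (lt_or_ge i B.T.n).elim
      (fun hi => h.inj _ _ (k1 a i hi).1 (h1 i hi).1 ((k1 a i hi).2.trans (h1 i hi).2.symm))
      fun hi => (Perm.extendDomain_apply_not_subtype (p := (· < B.T.n)) _ _ (not_lt.2 hi)).trans (h2 i hi).symm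
  have k3 : ∀ a, ψ (inn a) = φ a := fun a => k2 _ _ (fun i hi => ⟨h.lt a hi, (h.act a i hi).symm⟩) fun i => h.rep.fix a
  have k4 : ψ σ = π := k2 _ _ (fun i hi => by
    obtain ⟨-, u, hu, a, -, rfl⟩ := h.reach0 ht i (by simp [testBit_ones, hi])
    obtain rfl := List.mem_singleton.1 hu
    have e0 : B.pt [] = B.p0 := rfl
    have : π (φ a B.p0) = φ (s a) (B.pt (nth [] U (nth 0 r B.x0))) := by rw [← e6, ap _ h.good.lt, hs]; simp
    rw [e0, this, ← h.act _ _ (h.pt_lt _), ← h.act _ _ h.good.lt, h.b0, map_mul, map_mul, map_inv,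
      ← gU _ (ltB_true (c5 _ (ltB_true c3)).2.1), h.faith.inj ((gr _ (ltB_true c3)).trans (hs _).symm)]
    exact ⟨h.lt _ (h.pt_lt _), rfl⟩) fun i hi => hB.good.fix k i (e1 ▸ hi)
  have k5 : ∀ a, (∀ b ∈ B'.base, ψ a b = b) → a = 1 := fun a ha => MulEquiv.ext fun y =>
    (h.rep.gens.eq_top (N := a.toMonoidHom.eqLocus (.id G)) fun x hx => by
      have := (k1 a _ (h.pt_lt (nth [] U x))).2
      rw [ha _ (by rw [eq_of_weq c2, FD.pts_eq]; exact List.mem_map_of_mem (H29.nth_mem _ (beq_true c4 ▸ e4 ▸ hx))),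
        ← gU x (e4 ▸ hx)] at this
      exact this.symm).ge trivial
  have k6 : Function.Injective ψ := (injective_iff_map_eq_one _).2 fun a e => k5 a fun b _ => by simp [e]
  have inj : Function.Injective (inn (G := G)) := fun a b e => h.faith.inj (by rw [← k3, e, k3])
  have out : σ ∉ (inn (G := G)).range := by
    rintro ⟨a, e⟩
    have e : φ a = π := by rw [← k3, e, k4]
    have : a = 1 := ((card_le_one_iff_eq_bot _).1 hY).le (mem_St.2 ⟨trivial, by simp, fun u hu => by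
      rw [e, ← ap _ (h.pt_lt u)]; exact beq_true (allL_true c6 _ (by rw [FD.pts_eq]; exact List.mem_map_of_mem hu))⟩)
    rw [FD.neB, band_true] at c7
    have := beq_false (bnot_true.1 c7.2)
    rw [ap _ (e1 ▸ ltB_true c7.1), ← e, ‹a = 1›, map_one] at this
    exact this rfl
  have cr : Nat.card (inn (G := G)).range = m := (Nat.card_congr (MonoidHom.ofInjective inj).toEquiv).symm.trans h.card
  let f : ℕ → MulAut G := fun x => if x = k then σ else inn (g x)
  have mf : ∀ x, ψ (f x) = B'.T.ρ x := fun x => by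
    rcases lt_trichotomy x k with hx | rfl | hx
    · simp only [f, if_neg hx.ne, k3, mp x hx]
    · simp only [f, if_true, k4, hπ]
    · simp only [f, if_neg hx.ne', h.rep.gens.triv x (by omega), map_one, hB.good.triv x (by omega)]
  have fI : Inv B'.T.k f := fun x => k6 (by rw [map_inv, mf, mf, hI])
  refine ⟨f, ψ, h, ⟨hB, ⟨hB.good, ⟨fI, fun x hx => k6 (by rw [mf, map_one, hB.good.triv x hx]), fun a =>
    exists_word_of_mem_closure fI (S := Set.range f) (by rintro _ ⟨x, rfl⟩; exact ⟨[x], ev_single f x⟩) ?_⟩, mf⟩,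
    ⟨‹_›, hm, k5⟩, ⟨?_, ?_⟩, fun y => ?_, fun i j hi hj e => h.inj i j (e1 ▸ hi) (e1 ▸ hj) (inj e), fun a i hi => ?_, ?_⟩,
    fun x hx => if_neg hx, by simpa only [f, if_true] using out, inj, ?_⟩
  · refine (eq_top_of_le_card _ (hm.le.trans (cr ▸ two_mul_le ?_ (subset_closure ⟨k, if_pos rfl⟩) out))).ge trivial
    rintro _ ⟨y, rfl⟩
    exact (h.rep.gens.eq_top (N := (closure (Set.range f)).comap inn) fun x hx =>
      subset_closure ⟨x, if_neg (by omega)⟩).ge trivial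
  · rintro _ ⟨d, hd, rfl⟩; rw [orderOf_injective _ inj, h.t3.1 d hd]
  · rintro _ ⟨d, hd, rfl⟩ _ ⟨c, hc, rfl⟩
    simpa only [← map_mul, ← map_pow, map_eq_one_iff _ inj] using h.t3.2 d hd c hc
  · simp only [Set.mem_image, h.img, e1]
    exact ⟨by rintro ⟨_, ⟨i, hi, rfl⟩, rfl⟩; exact ⟨i, hi, rfl⟩, by rintro ⟨i, hi, rfl⟩; exact ⟨_, ⟨i, hi, rfl⟩, rfl⟩⟩
  · rw [conj_conj, (k1 a i (e1 ▸ hi)).2]
  · rw [e2, e3, h.b0]; exact (if_neg (ltB_true c3).ne).symm
  · have := (inn (G := G)).range.card_mul_index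
    rw [cr, hm, mul_comm] at this
    exact Nat.eq_of_mul_eq_mul_right (h.card ▸ Nat.card_pos) this

theorem isConj_of_map {x y c : G} (hx : orderOf x = 2) (e : (zpowers x).map (MulAut.conj c).toMonoidHom = zpowers y) :
    IsConj x y := by
  classical
  rw [MonoidHom.map_zpowers] at e
  have h2 : orderOf ((MulAut.conj c).toMonoidHom x) = 2 := (MulEquiv.orderOf_eq _ x).trans hx
  obtain ⟨n, hn, h⟩ := Finset.mem_image.1 ((isOfFinOrder_iff_pow_eq_one.2 ⟨2, two_pos, h2 ▸ pow_orderOf_eq_one _⟩).mem_zpowers_iff_mem_range_orderOf.1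
    (e ▸ mem_zpowers y))
  rw [h2, Finset.mem_range] at hn
  interval_cases n
  · rw [← h, pow_zero, zpowers_one_eq_bot, zpowers_eq_bot] at e
    rw [e, orderOf_one] at h2; cases h2
  · exact isConj_iff.2 ⟨c, by simpa using h⟩

theorem two_prod [Finite G] {Γ : Type*} [Group Γ] {H K : Subgroup G} {d : G} (hd : orderOf d = 2) (h1 : d ∈ H) (h2 : K ≤ H)
    (h3 : K ≤ centralizer {d}) (h4 : d ∉ K) (θ : K →* Γ) (hs : Function.Surjective θ) (hc : Nat.card H ≤ 2 * Nat.card Γ) :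
    Nonempty (H ≃* Multiplicative (ZMod 2) × Γ) := by
  have c1 : ∀ x ∈ zpowers d, ∀ y ∈ K, x * y = y * x := by
    rintro _ ⟨n, rfl⟩ y hy
    exact (Commute.zpow_left (h3 hy _ rfl) n).eq
  have c2 := inf_two (by rw [← sq, ← hd, pow_orderOf_eq_one]) h4
  have c3 := (Nat.card_zpowers d).trans hd
  have c4 := card_sup_comm c1 c2
  have l : zpowers d ⊔ K ≤ H := sup_le (zpowers_le.2 h1) h2
  have c5 := card_le_of_le l
  have c6 := Nat.card_le_card_of_surjective θ hs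
  obtain ⟨e1⟩ := prod_equiv c1 c2
  obtain ⟨e2⟩ := equiv_two c3
  obtain ⟨e3, -⟩ := equiv_of_surj θ hs (by rw [c4, c3] at c5; omega)
  exact ⟨(MulEquiv.subgroupCongr (eq_of_le_of_card_ge l (by rw [c4, c3]; omega)).symm).trans (e1.trans (e2.prodCongr e3))⟩

theorem FM.not_conj {B : FD} {m F F' : ℕ} {D : Set G} {g : ℕ → G} {φ : G →* Perm ℕ} {β : ℕ → G} (h : FM B m D g φ β)
    {x y : List ℕ} (hF : IsFix B g β [x] F) (hF' : IsFix B g β [y] F') (hc : bnot (Nat.beq (B.pop F') (B.pop F)) = true) :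
    ¬ IsConj (ev g x) (ev g y) := fun e => by
  obtain ⟨c, e⟩ := isConj_iff.1 e
  exact beq_false (bnot_true.1 hc) (h.pop_congr (a := c) (fun i hi => ((hF i).1 hi).1) (fun i hi => ((hF' i).1 hi).1) fun i hi => by
    simp [hF i, hF' (φ c i), hi, h.lt c hi, ← e, h.comm_act _ _ hi])

theorem FM.perp1 {B : FD} {m F : ℕ} {D : Set G} {g : ℕ → G} {φ : G →* Perm ℕ} {β : ℕ → G} (h : FM B m D g φ β)
    {x b : List ℕ} {Z : List (List ℕ)} (hF : IsFix B g β [x] F) (hc : band (tb F (B.pt b)) (band (subB F (B.nb b))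
      (band (subB (B.bits Z) F) (subB (B.nbs Z F) (bit (B.pt b))))) = true) {a : G} (ha : Commute a (ev g x)) :
    Commute a (β (B.pt b)) := by
  simp only [band_true] at hc
  have hS := h.invC1 (Xs := []) hF F List.mem_cons_self
  have := h.cand_sub (h.cand_perp hS (h.cand_of hS hc.1) hc.2.1 hc.2.2.1) hc.2.2.2 a (mem_cent_wgrp.2 (by simpa using ha.symm))
  exact (h.comm_iff _ (h.pt_lt b)).2 (by simpa [testBit_bit, eq_comm] using this)

namespace AM
variable {B B' : FD} {k m : ℕ} {D : Set G} {g : ℕ → G} {φ : G →* Perm ℕ} {β : ℕ → G} {f : ℕ → MulAut G}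
  {ψ : MulAut G →* Perm ℕ} (h : AM B B' k m D g φ β f ψ) {u w : List ℕ} {W Xs Y : List (List ℕ)} {x : G}
include h

theorem ev_eq : ∀ {w : List ℕ}, k ∉ w → ev f w = inn (ev g w)
  | [], _ => by simp [ev_nil]
  | y :: w, e => by
    rw [List.mem_cons, not_or] at e
    rw [ev_cons, ev_cons, map_mul, ev_eq e.2, h.lt y (Ne.symm e.1)]

theorem outw (hw : k ∉ w) : ev f (k :: w) ∉ (inn (G := G)).range := by
  rw [ev_cons, h.ev_eq hw, (inn (G := G)).range.mul_mem_cancel_right ⟨_, rfl⟩]; exact h.out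

theorem half (hw : k ∉ w) (h1 : B'.memB [k :: w] Y [k :: w] = true) {c : ℕ}
    (hk : Nat.card (St B' f ψ ⊤ [k :: w] Y) ≤ 2 * c) : Nat.card ((St B' f ψ ⊤ [k :: w] Y).comap inn) ≤ c := by
  have := h.top.fin
  have := two_mul_le (map_comap_le inn _) (h.top.memT h1 _ List.mem_cons_self) fun e => h.outw hw (map_le_range _ _ e)
  rw [card_map_of_injective h.inj] at this
  omega

theorem le_St (hW : ∀ w ∈ W, k ∉ w) (hc : B'.memB Xs Y W = true) : wgrp g W ≤ (St B' f ψ ⊤ Xs Y).comap inn :=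
  wgrp_le fun w hw => mem_comap.2 (h.ev_eq (hW w hw) ▸ h.top.memT hc w hw)

theorem mem1 : x ∈ (St B' f ψ ⊤ [w] []).comap inn ↔ ev f w x = x := by
  simp [mem_St, ← comm_conj h.inj, Commute.symm_iff]

theorem mem2 : x ∈ (St B' f ψ ⊤ [w] [u]).comap inn ↔ ev f w x = x ∧ Commute x (β (B'.pt u)) := by
  have : Commute (inn x) (inn (β (B'.pt u))) ↔ Commute x (β (B'.pt u)) := ⟨fun e => e.of_map h.inj, fun e => e.map _⟩
  simp [mem_St, ← comm_conj h.inj, Commute.symm_iff, ← h.top.comm_iff _ (h.top.pt_lt u), this]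

theorem let_eq {y : ℕ} (hy : y ≠ k) (hc : B'.eqB [y] (B'.tw u) = true) : β (B'.pt u) = g y ∧ g y ∈ D := by
  have e := h.inj ((h.top.ev_tw u).symm.trans ((h.top.eqB hc).symm.trans ((ev_single f y).trans (h.lt y hy))))
  obtain ⟨d, hd, e'⟩ := h.top.pt_mem u
  exact ⟨e, e ▸ h.inj e' ▸ hd⟩

theorem cls {R : List (List ℕ)} (hR : ∀ X : Subgroup (MulAut G), Nat.card X = 2 → ∃ t ∈ R ++ W, ∃ c : MulAut G,
    X.map (MulAut.conj c).toMonoidHom = wgrp f [t]) (hW : ∀ w ∈ W, k ∉ w) {t : MulAut G} (h1 : orderOf t = 2)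
    (h2 : t ∉ (inn (G := G)).range) : ∃ r ∈ R, IsConj t (ev f r) := by
  obtain ⟨r, hr, c, e⟩ := hR _ ((Nat.card_zpowers t).trans h1)
  have e := isConj_of_map h1 (wgrp_single f r ▸ e)
  refine ⟨r, (List.mem_append.1 hr).resolve_right fun hr => h2 ?_, e⟩
  obtain ⟨c, e⟩ := isConj_iff.1 e.symm
  exact ⟨_, (conj_conj ..).symm.trans (h.ev_eq (hW r hr) ▸ e)⟩

end AM

end Cfsg.Agent.H17
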