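import Cfsg.Agent.H12.SBridge
import Cfsg.Agent.H13.Refl

/-! Symplectic and unitary transvections over a fixed field of order two are 3-transpositions. -/

namespace Cfsg.Agent.H17

open H12 Module

variable {F V : Type*} [Field F] [AddCommGroup V] [Module F V] [FiniteDimensional F V]
  {σ : F →+* F} {B : V →ₛₗ[σ] V →ₗ[F] F}

theorem rank_one_iff_tv [Fintype F] (D : SD B) (h2 : ∀ c : F, σ c = c → c = 0 ∨ c = 1) (g : SUG B) :
    finrank F (LinearMap.range ((g.1.1 : V →ₗ[F] V) - LinearMap.id)) = 1 ↔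
      ∃ v, v ≠ 0 ∧ B v v = 0 ∧ g.1 = tv B v 1 := by
  constructor
  · intro h
    obtain ⟨f, v, hf⟩ := LinearEquiv.mem_dilatransvections_iff_finrank.2 h.le
    have hg : ∀ x, g.1.1 x = x + f x • v := fun x => by
      have := LinearMap.congr_fun hf x
      simpa [LinearMap.transvection.apply] using this
    have hne : ¬ ∀ x, f x • v = 0 := fun h0 => by
      have : ((g.1.1 : V →ₗ[F] V) - LinearMap.id) = 0 := LinearMap.ext fun x => by
        simp [hg, h0]
      rw [this, LinearMap.range_zero, finrank_bot] at h; exact zero_ne_one h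
    have hv : v ≠ 0 := fun h0 => hne fun x => by simp [h0]
    obtain ⟨x1, hx1⟩ : ∃ x, f x ≠ 0 := by
      by_contra! h0; exact hne fun x => by simp [h0]
    have hd := mem_SUG.1 g.2
    rw [hf, LinearMap.transvection.det] at hd
    have hfv : f v = 0 := by linear_combination hd
    have hiso : ∀ x y, f y * B x v + σ (f x) * B v y + σ (f x) * f y * B v v = 0 := fun x y => by
      have := UG_map g.1 x y
      rw [hg, hg] at this
      simp only [map_add, LinearMap.add_apply, LinearMap.map_smulₛₗ, LinearMap.smul_apply,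
        smul_eq_mul, RingHom.id_apply] at this
      linear_combination this
    have hvv : B v v = 0 := by
      have := hiso x1 v
      rw [hfv] at this
      exact (mul_eq_zero.1 (by linear_combination this : σ (f x1) * B v v = 0)).resolve_left
        (D.σ_ne_zero hx1)
    obtain ⟨x0, hx0⟩ := D.exists_ne hv
    have hx0' := D.ne0 hx0
    have hc : ∀ y, f y = (-σ (f x0) / B x0 v) * B v y := fun y => by
      have := hiso x0 y
      rw [hvv] at this
      field_simp
      linear_combination this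
    have hfix : σ (-σ (f x0) / B x0 v) = -σ (f x0) / B x0 v :=
      D.fix_of_isometry hvv hv fun x y => by rw [← hc, ← hc, ← hg, ← hg, UG_map]
    rcases h2 _ hfix with h0 | h1
    · exact absurd (by rw [hc, h0, zero_mul]) hx1
    · exact ⟨v, hv, hvv, UG_ext fun x => by rw [hg, tv_apply D hvv (map_one σ), hc, h1]⟩
  · rintro ⟨v, hv, hvv, hg⟩
    obtain ⟨x0, hx0⟩ := D.exists_ne hv
    have : LinearMap.range ((g.1.1 : V →ₗ[F] V) - LinearMap.id) = F ∙ v := by
      refine le_antisymm ?_ ?_
      · rintro _ ⟨x, rfl⟩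
        simp only [LinearMap.sub_apply, LinearEquiv.coe_coe, hg, tv_apply D hvv (map_one σ),
          LinearMap.id_apply, add_sub_cancel_left]
        exact Submodule.smul_mem _ _ (Submodule.mem_span_singleton_self v)
      · rw [Submodule.span_singleton_le_iff_mem]
        refine ⟨(B v x0)⁻¹ • x0, ?_⟩
        simp [hg, tv_apply D hvv (map_one σ), hx0]
    rw [this, finrank_span_singleton hv]

theorem tv_threeTr [Fintype F] (D : SD B) (h2 : ∀ c : F, σ c = c → c = 0 ∨ c = 1) (hN : NS σ) (hT : TH B)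
    (hV : σ = RingHom.id F ∨ 3 ≤ finrank F V) (h : 2 ≤ finrank F V) :
    IsThreeTranspositionClass {g : SUG B |
      finrank F (LinearMap.range ((g.1.1 : V →ₗ[F] V) - LinearMap.id)) = 1} := by
  have h11 : (1 : F) + 1 = 0 := (h2 _ (by simp)).resolve_right (by simp)
  have h1 : σ 1 = 1 := map_one σ
  have hsq : ∀ v, B v v = 0 → tv B v 1 * tv B v 1 = 1 := fun v hv => by
    rw [tv_mul D hv h1 h1, h11, tv_zero D]
  simp only [rank_one_iff_tv D h2]
  refine ⟨⟨?_, ?_⟩, ?_, ?_⟩
  · rintro g ⟨v, hv, hvv, hg⟩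
    refine orderOf_eq_prime (Subtype.ext ?_) fun h0 => ?_
    · rw [sq, Subgroup.coe_mul, hg, hsq v hvv]; rfl
    · obtain ⟨x, hx⟩ := D.exists_ne hv
      have := tv_apply D hvv h1 x
      rw [← hg, h0] at this
      simp [hx, hv] at this
  · rintro d ⟨u, hu, huu, hd⟩ e ⟨v, hv, hvv, he⟩
    have hi : ∀ v, B v v = 0 → (tv B v 1)⁻¹ = tv B v 1 := fun v hv =>
      inv_eq_of_mul_eq_one_right (hsq v hv)
    by_cases hb : B u v = 0
    · left
      have := conj_tv D (tv B u 1) v 1
      rw [tv_apply_of_perp D _ hb, hi u huu] at this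
      refine Subtype.ext ?_
      rw [sq, Subgroup.coe_mul, Subgroup.coe_mul, hd, he, ← mul_assoc, this, hsq v hvv]; rfl
    · right
      have hb1 : B u v * σ (B u v) = 1 := (h2 _ (by rw [map_mul, D.invol, mul_comm])).resolve_left
        (mul_ne_zero hb (D.σ_ne_zero hb))
      have e1 := conj_tv D (tv B u 1) v 1
      have e2 := conj_tv D (tv B v 1) u 1
      have e3 : (tv B u 1).1 v = B u v • (tv B v 1).1 u := by
        rw [tv_apply D huu h1, tv_apply D hvv h1, D.skew u v, smul_add, smul_smul, one_mul,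
          one_mul, mul_neg, hb1, show (-1 : F) = 1 by linear_combination -h11, one_smul, add_comm]
      rw [e3, tv_smul D (by rw [UG_map, huu]) h1, hb1, one_mul, ← e2, hi u huu, hi v hvv] at e1
      refine Subtype.ext ?_
      rw [Subgroup.coe_pow, Subgroup.coe_mul, hd, he]
      calc (tv B u 1 * tv B v 1) ^ 3
          = (tv B u 1 * tv B v 1 * tv B u 1) * (tv B v 1 * tv B u 1 * tv B v 1) := by
            simp only [pow_succ, pow_zero, one_mul, mul_assoc]
        _ = tv B v 1 * tv B u 1 * (tv B v 1 * tv B v 1) * tv B u 1 * tv B v 1 := by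
            rw [e1]; simp only [mul_assoc]
        _ = 1 := by rw [hsq v hvv, mul_one, mul_assoc (tv B v 1), hsq u huu, mul_one, hsq v hvv]
  · obtain ⟨e, he, hee⟩ := D.exists_iso hN h
    refine ⟨⟨tv B e 1, tv_mem_SUG D _ _⟩, ⟨e, he, hee, rfl⟩, Set.ext fun g => ⟨?_, ?_⟩⟩
    · rintro ⟨v, hv, hvv, hg⟩
      obtain ⟨k, hk, rfl⟩ := D.erel hN hV hee he hvv hv
      exact isConj_iff.2 ⟨⟨k, D.EG_le_SUG hk⟩, Subtype.ext (by rw [hg, ← conj_tv D]; rfl)⟩
    · intro hg
      obtain ⟨k, rfl⟩ := isConj_iff.1 hg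
      exact ⟨k.1.1 e, UG_ne_zero _ he, by rw [UG_map, hee], by rw [← conj_tv D]; rfl⟩
  · rw [eq_top_iff]
    rintro ⟨g, hg⟩ -
    have hg' : g ∈ TG B := D.TG_eq_SUG hN hT ▸ hg
    induction hg' using Subgroup.closure_induction with
    | mem x hx =>
      obtain ⟨v, c, rfl⟩ := hx
      by_cases hc : B v v = 0 ∧ σ c = c
      · by_cases hv : v = 0
        · exact (Subtype.ext (hv ▸ tv_zero_left D c) : (⟨_, hg⟩ : SUG B) = 1) ▸ one_mem _
        · rcases h2 c hc.2 with rfl | rfl
          · exact (Subtype.ext (tv_zero D v) : (⟨_, hg⟩ : SUG B) = 1) ▸ one_mem _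
          · exact Subgroup.subset_closure ⟨v, hv, hc.1, rfl⟩
      · exact (Subtype.ext (tv_of_not hc) : (⟨_, hg⟩ : SUG B) = 1) ▸ one_mem _
    | one => exact one_mem _
    | mul x y hx hy ihx ihy => exact mul_mem (ihx (D.TG_le_SUG hx)) (ihy (D.TG_le_SUG hy))
    | inv x hx ih => exact inv_mem (ih (D.TG_le_SUG hx))

theorem rank_sub_one {ι : Type*} [Fintype ι] [DecidableEq ι] (A : Matrix ι ι F)
    (f : (ι → F) →ₗ[F] (ι → F)) (h : ∀ v, f v = A.mulVec v) :
    (A - 1).rank = finrank F (LinearMap.range (f - LinearMap.id)) := by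
  have : (A - 1).mulVecLin = f - LinearMap.id := LinearMap.ext fun v => by
    simp [h, Matrix.sub_mulVec]
  rw [Matrix.rank, this]

end Cfsg.Agent.H17
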